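import Mathlib
import Cfsg.Agent.Lib.Helper33.Breadth.Defs

/-!
# S3777 (helper33's BREADTH project), package [AB]

`Q = A ⟨g⟩` with `A` abelian normal: `|Q'| ≤ |Q : C_Q(g)|`.  (helper34)
-/

set_option autoImplicit false

namespace Cfsg.Agent.Lib.Helper34.Breadth

open Cfsg.Agent.Lib.Helper33.Breadth

universe u

/-- The subgroup `{[a, g] | a ∈ A}` for an abelian normal subgroup `A`. -/
def commSub {Q : Type u} [Group Q] (A : Subgroup Q) (g : Q) (hA : A.Normal)
    (hab : ∀ a ∈ A, ∀ b ∈ A, a * b = b * a) : Subgroup Q where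
  carrier := {d | ∃ a ∈ A, d = a * g * a⁻¹ * g⁻¹}
  one_mem' := ⟨1, A.one_mem, by simp⟩
  mul_mem' := by
    rintro x y ⟨a, ha, rfl⟩ ⟨b, hb, rfl⟩
    refine ⟨b * a, A.mul_mem hb ha, ?_⟩
    have hc : g * a⁻¹ * g⁻¹ ∈ A := hA.conj_mem _ (A.inv_mem ha) g
    have hc' : g * b⁻¹ * g⁻¹ ∈ A := hA.conj_mem _ (A.inv_mem hb) g
    have h1 : a * (g * a⁻¹ * g⁻¹) * b = b * (a * (g * a⁻¹ * g⁻¹)) :=
      hab _ (A.mul_mem ha hc) _ hb
    calc a * g * a⁻¹ * g⁻¹ * (b * g * b⁻¹ * g⁻¹)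
        = a * (g * a⁻¹ * g⁻¹) * b * (g * b⁻¹ * g⁻¹) := by group
      _ = b * (a * (g * a⁻¹ * g⁻¹)) * (g * b⁻¹ * g⁻¹) := by rw [h1]
      _ = b * a * g * (b * a)⁻¹ * g⁻¹ := by group
  inv_mem' := by
    rintro x ⟨a, ha, rfl⟩
    refine ⟨a⁻¹, A.inv_mem ha, ?_⟩
    have hc : g * a * g⁻¹ ∈ A := hA.conj_mem _ ha g
    have h1 : g * a * g⁻¹ * a⁻¹ = a⁻¹ * (g * a * g⁻¹) := hab _ hc _ (A.inv_mem ha)
    calc (a * g * a⁻¹ * g⁻¹)⁻¹ = g * a * g⁻¹ * a⁻¹ := by group
      _ = a⁻¹ * (g * a * g⁻¹) := h1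
      _ = a⁻¹ * g * a⁻¹⁻¹ * g⁻¹ := by group

theorem mem_commSub {Q : Type u} [Group Q] (A : Subgroup Q) (g : Q) (hA : A.Normal)
    (hab : ∀ a ∈ A, ∀ b ∈ A, a * b = b * a) (d : Q) :
    d ∈ commSub A g hA hab ↔ ∃ a ∈ A, d = a * g * a⁻¹ * g⁻¹ := Iff.rfl

theorem commSub_le {Q : Type u} [Group Q] (A : Subgroup Q) (g : Q) (hA : A.Normal)
    (hab : ∀ a ∈ A, ∀ b ∈ A, a * b = b * a) : commSub A g hA hab ≤ A := by
  rintro d ⟨a, ha, rfl⟩
  have hc : g * a⁻¹ * g⁻¹ ∈ A := hA.conj_mem _ (A.inv_mem ha) g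
  have : a * g * a⁻¹ * g⁻¹ = a * (g * a⁻¹ * g⁻¹) := by group
  rw [this]
  exact A.mul_mem ha hc

theorem commSub_normal {Q : Type u} [Group Q] (A : Subgroup Q) (g : Q) (hA : A.Normal)
    (hab : ∀ a ∈ A, ∀ b ∈ A, a * b = b * a)
    (hgen : ∀ x : Q, ∃ a ∈ A, ∃ k : ℤ, x = a * g ^ k) : (commSub A g hA hab).Normal := by
  have hg : g ∈ Subgroup.normalizer ((commSub A g hA hab : Subgroup Q) : Set Q) := by
    rw [Subgroup.mem_normalizer_iff]
    intro n
    constructor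
    · rintro ⟨a, ha, rfl⟩
      refine ⟨g * a * g⁻¹, hA.conj_mem _ ha g, ?_⟩
      group
    · rintro ⟨a, ha, h⟩
      have hc : g⁻¹ * a * g ∈ A := by
        have := hA.conj_mem _ ha g⁻¹
        rwa [inv_inv] at this
      refine ⟨g⁻¹ * a * g, hc, ?_⟩
      have h2 : n = g⁻¹ * (g * n * g⁻¹) * g := by group
      rw [h2, h]
      group
  constructor
  intro n hn x
  obtain ⟨a, ha, k, rfl⟩ := hgen x
  have hk : g ^ k ∈ Subgroup.normalizer ((commSub A g hA hab : Subgroup Q) : Set Q) :=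
    Subgroup.zpow_mem _ hg k
  have h1 : g ^ k * n * (g ^ k)⁻¹ ∈ commSub A g hA hab :=
    (Subgroup.mem_normalizer_iff.mp hk n).mp hn
  have h2 : a * (g ^ k * n * (g ^ k)⁻¹) = (g ^ k * n * (g ^ k)⁻¹) * a :=
    hab _ ha _ (commSub_le A g hA hab h1)
  have h3 : a * g ^ k * n * (a * g ^ k)⁻¹ = a * (g ^ k * n * (g ^ k)⁻¹) * a⁻¹ := by group
  rw [h3, h2, mul_inv_cancel_right]
  exact h1

/-- Package [AB]. -/
theorem pkgAbStep : PkgAbStep.{u} := by
  intro Q _ _ A g hA hab hgen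
  classical
  have hDn : (commSub A g hA hab).Normal := commSub_normal A g hA hab hgen
  -- the derived subgroup lies in `D`
  have hle : commutator Q ≤ commSub A g hA hab := by
    rw [commutator_def, Subgroup.commutator_le]
    intro x _ y _
    obtain ⟨a, ha, k, rfl⟩ := hgen x
    obtain ⟨b, hb, l, rfl⟩ := hgen y
    have hcg : ∀ c ∈ A, Commute (QuotientGroup.mk c : Q ⧸ commSub A g hA hab)
        (QuotientGroup.mk g) := by
      intro c hc
      rw [← commutatorElement_eq_one_iff_commute, commutatorElement_def, ← QuotientGroup.mk_inv,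
        ← QuotientGroup.mk_inv, ← QuotientGroup.mk_mul, ← QuotientGroup.mk_mul,
        ← QuotientGroup.mk_mul, QuotientGroup.eq_one_iff]
      exact ⟨c, hc, rfl⟩
    have hag := hcg a ha
    have hbg := hcg b hb
    have hab' : Commute (QuotientGroup.mk a : Q ⧸ commSub A g hA hab) (QuotientGroup.mk b) := by
      show _ * _ = _ * _
      rw [← QuotientGroup.mk_mul, ← QuotientGroup.mk_mul, hab a ha b hb]
    have hcomm : Commute (QuotientGroup.mk (a * g ^ k) : Q ⧸ commSub A g hA hab)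
        (QuotientGroup.mk (b * g ^ l)) := by
      rw [QuotientGroup.mk_mul, QuotientGroup.mk_mul, QuotientGroup.mk_zpow,
        QuotientGroup.mk_zpow]
      refine Commute.mul_left (Commute.mul_right hab' (hag.zpow_right l)) ?_
      exact Commute.mul_right (hbg.symm.zpow_left k)
        ((Commute.refl _).zpow_zpow k l)
    rw [← QuotientGroup.eq_one_iff, commutatorElement_def, QuotientGroup.mk_mul,
      QuotientGroup.mk_mul, QuotientGroup.mk_mul, QuotientGroup.mk_inv, QuotientGroup.mk_inv,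
      hcomm.eq]
    group
  -- an injection of the derived subgroup into the cosets of the centralizer
  have hex : ∀ d : ↥(commutator Q), ∃ a ∈ A, (d : Q) = a * g * a⁻¹ * g⁻¹ := fun d => hle d.2
  choose f hfA hf using hex
  have hinj : Function.Injective
      (fun d : ↥(commutator Q) =>
        (QuotientGroup.mk (f d) : Q ⧸ Subgroup.centralizer ({g} : Set Q))) := by
    intro d d' h
    have h1 : (f d)⁻¹ * f d' ∈ Subgroup.centralizer ({g} : Set Q) := QuotientGroup.eq.mp h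
    rw [Subgroup.mem_centralizer_iff] at h1
    have h2 : g * ((f d)⁻¹ * f d') = (f d)⁻¹ * f d' * g := h1 g rfl
    apply Subtype.ext
    rw [hf d, hf d']
    have h3 : f d' * g * (f d')⁻¹ = f d * g * (f d)⁻¹ := by
      have h4 : f d' * g = f d * g * ((f d)⁻¹ * f d') := by
        rw [mul_assoc (f d), h2]
        group
      rw [h4]
      group
    rw [h3]
  exact Nat.card_le_card_of_injective _ hinj

end Cfsg.Agent.Lib.Helper34.Breadth
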