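import Mathlib
import Cfsg.Agent.Lib.Helper33.Breadth.Defs

/-!
# S3777 (helper33's BREADTH project), package [STEP]

`|G'| ≤ |G : C_G(g)| * |M'|` for `M` of index `p` in the finite `p`-group `G` and `g ∉ M`
(from [NORM] and [AB], by passing to `G / M'`).  (helper34)
-/

set_option autoImplicit false

namespace Cfsg.Agent.Lib.Helper34.Breadth

open Cfsg.Agent.Lib.Helper33.Breadth

open scoped commutatorElement

universe u

/-- If `M` has prime index `p`, is normal, and `g ∉ M`, then `G = M ⟨g⟩`. -/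
theorem exists_mul_zpow_of_index_prime {G : Type u} [Group G] (p : ℕ) [Fact p.Prime]
    (M : Subgroup G) [M.Normal] (g : G) (hM : M.index = p) (hg : g ∉ M) (y : G) :
    ∃ m ∈ M, ∃ k : ℤ, y = m * g ^ k := by
  have hcard : Nat.card (G ⧸ M) = p := hM
  have hne : (QuotientGroup.mk g : G ⧸ M) ≠ 1 := by
    intro h
    exact hg ((QuotientGroup.eq_one_iff g).mp h)
  have htop : Subgroup.zpowers (QuotientGroup.mk g : G ⧸ M) = ⊤ :=
    zpowers_eq_top_of_prime_card hcard hne
  have hy : (QuotientGroup.mk y : G ⧸ M) ∈ Subgroup.zpowers (QuotientGroup.mk g : G ⧸ M) := by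
    rw [htop]
    trivial
  obtain ⟨k, hk⟩ := Subgroup.mem_zpowers_iff.mp hy
  refine ⟨y * (g ^ k)⁻¹, ?_, k, by group⟩
  rw [← QuotientGroup.eq_one_iff (N := M), QuotientGroup.mk_mul, QuotientGroup.mk_inv,
    QuotientGroup.mk_zpow, hk, mul_inv_cancel]

/-- The order of a subgroup is at most the order of its image in a quotient times the order of
the kernel. -/
theorem card_le_card_map_mul {G : Type u} [Group G] [Finite G] (H N : Subgroup G) [N.Normal] :
    Nat.card ↥H ≤ Nat.card ↥(H.map (QuotientGroup.mk' N)) * Nat.card ↥N := by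
  classical
  let f : ↥H →* G ⧸ N := (QuotientGroup.mk' N).comp H.subtype
  have hr : Nat.card ↥f.range = Nat.card ↥(H.map (QuotientGroup.mk' N)) := by
    have : f.range = H.map (QuotientGroup.mk' N) := by
      ext x
      constructor
      · rintro ⟨⟨d, hd⟩, rfl⟩
        exact ⟨d, hd, rfl⟩
      · rintro ⟨d, hd, rfl⟩
        exact ⟨⟨d, hd⟩, rfl⟩
    rw [this]
  have hk : Nat.card ↥f.ker ≤ Nat.card ↥N := by
    have hmem : ∀ x : ↥f.ker, ((x : ↥H) : G) ∈ N := by
      intro x
      have h1 : f (x : ↥H) = 1 := x.2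
      exact (QuotientGroup.eq_one_iff _).mp h1
    apply Nat.card_le_card_of_injective (fun x : ↥f.ker => (⟨((x : ↥H) : G), hmem x⟩ : ↥N))
    intro x x' h
    have h0 := congrArg Subtype.val h
    have h1 : ((x : ↥H) : G) = ((x' : ↥H) : G) := h0
    exact Subtype.ext (Subtype.ext h1)
  have hcard : Nat.card ↥H = Nat.card ↥f.ker * Nat.card ↥f.range := by
    rw [← Subgroup.index_ker]
    exact (Subgroup.card_mul_index f.ker).symm
  rw [hcard, hr, mul_comm]
  exact Nat.mul_le_mul_left _ hk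

/-- Package [STEP]. -/
theorem pkgStep (hNorm : PkgNorm.{u}) (hAB : PkgAbStep.{u}) : PkgStep.{u} := by
  intro G _ _ p _ hG M g hM hg
  classical
  haveI hMn : M.Normal := hNorm p hG M hM
  haveI hNn : (⁅M, M⁆ : Subgroup G).Normal := Subgroup.commutator_normal M M
  have hπ : Function.Surjective (QuotientGroup.mk' ⁅M, M⁆) := QuotientGroup.mk'_surjective _
  -- apply [AB] in `G ⧸ ⁅M, M⁆`
  have h1 : Nat.card (commutator (G ⧸ ⁅M, M⁆)) ≤
      (Subgroup.centralizer ({QuotientGroup.mk' ⁅M, M⁆ g} : Set (G ⧸ ⁅M, M⁆))).index := by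
    apply hAB (M.map (QuotientGroup.mk' ⁅M, M⁆)) (QuotientGroup.mk' ⁅M, M⁆ g)
      (Subgroup.Normal.map hMn _ hπ)
    · rintro a ⟨m, hm, rfl⟩ b ⟨m', hm', rfl⟩
      rw [← map_mul, ← map_mul]
      apply (QuotientGroup.eq).mpr
      have h : (m * m')⁻¹ * (m' * m) = ⁅m'⁻¹, m⁻¹⁆ := by
        rw [commutatorElement_def]
        group
      rw [h]
      exact Subgroup.commutator_mem_commutator (M.inv_mem hm') (M.inv_mem hm)
    · intro x
      obtain ⟨y, rfl⟩ := hπ x
      obtain ⟨m, hm, k, rfl⟩ := exists_mul_zpow_of_index_prime p M g hM hg y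
      exact ⟨QuotientGroup.mk' ⁅M, M⁆ m, ⟨m, hm, rfl⟩, k, by rw [map_mul, map_zpow]⟩
  -- centralizer indices
  have h2 : (Subgroup.centralizer ({QuotientGroup.mk' ⁅M, M⁆ g} : Set (G ⧸ ⁅M, M⁆))).index ≤
      (Subgroup.centralizer ({g} : Set G)).index := by
    have hle : (Subgroup.centralizer ({g} : Set G)).map (QuotientGroup.mk' ⁅M, M⁆) ≤
        Subgroup.centralizer ({QuotientGroup.mk' ⁅M, M⁆ g} : Set (G ⧸ ⁅M, M⁆)) := by
      rintro x ⟨c, hc0, rfl⟩
      have hc : c ∈ Subgroup.centralizer ({g} : Set G) := hc0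
      rw [Subgroup.mem_centralizer_iff] at hc ⊢
      intro h hh
      rw [Set.mem_singleton_iff] at hh
      rw [hh, ← map_mul, ← map_mul, hc g rfl]
    have hd1 := Subgroup.index_dvd_of_le hle
    have hd2 := Subgroup.index_map_dvd (Subgroup.centralizer ({g} : Set G)) hπ
    exact Nat.le_of_dvd (Nat.pos_of_ne_zero Subgroup.index_ne_zero_of_finite) (hd1.trans hd2)
  -- cardinalities
  have h3 : Nat.card (commutator G) ≤ Nat.card (commutator (G ⧸ ⁅M, M⁆)) * Nat.card ↥⁅M, M⁆ := by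
    have h4 := card_le_card_map_mul (commutator G) ⁅M, M⁆
    have h5 : (commutator G).map (QuotientGroup.mk' ⁅M, M⁆) = commutator (G ⧸ ⁅M, M⁆) := by
      rw [commutator_def, Subgroup.map_commutator, commutator_def,
        Subgroup.map_top_of_surjective _ hπ]
    rw [h5] at h4
    exact h4
  calc Nat.card (commutator G) ≤ Nat.card (commutator (G ⧸ ⁅M, M⁆)) * Nat.card ↥⁅M, M⁆ := h3
    _ ≤ (Subgroup.centralizer ({g} : Set G)).index * Nat.card ↥⁅M, M⁆ :=
        Nat.mul_le_mul_right _ (h1.trans h2)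

end Cfsg.Agent.Lib.Helper34.Breadth
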